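import Cfsg.Agent.H111.EP.SpRows
import Cfsg.Agent.H663.EP.C7Main
import Cfsg.Agent.H673.EP.SpC8

/-!
# S3499-III: `PspNonRes`
-/

set_option autoImplicit false

namespace Cfsg.Agent.H91.EP

open Subgroup Cfsg.Agent.H284 Cfsg.Agent.H419.EP

theorem pspNonRes : PspNonRes :=
  Cfsg.Agent.H111.EP.pspNonRes_of₃ Cfsg.Agent.H663.EP.spC7
    fun _ _ _ h _ _ _ _ m hk hq hodd _ hQ1 hQ2 hA =>
      Cfsg.Agent.H673.EP.spC8 h m hk hq hodd hQ1 hQ2 (le_inf hA (m.hat_le _))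

end Cfsg.Agent.H91.EP
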