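import Cfsg.Agent.H588.EPU.Asm
import Cfsg.Agent.H29.EP.SU
import Cfsg.Agent.H380.EPU.CTwoA
import Cfsg.Agent.H380.EPU.CTwoB
import Cfsg.Agent.H511.EP.SUC5
import Cfsg.Agent.H932.EP.C6
import Cfsg.Agent.H25.EPU.CFour
import Cfsg.Agent.H25.EPU.CSeven
import Cfsg.Agent.H558.EPU.Main

/-!
# S3499-III: `PsuNonRes`
-/

set_option autoImplicit false

namespace Cfsg.Agent.H91.EP

open Subgroup Cfsg.Agent.H284 Cfsg.Agent.H419.EP Cfsg.Agent.H588.EPU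

theorem kills_C1 {Q : Type} [Group Q] [Finite Q] {A : Subgroup Q}
    {Γ : Subgroup (MulAut Q)} (h : EPT A Γ) {F : Type} [Field F] [Fintype F] {n q : ℕ}
    (m : Model Q (Cfsg.GU n F q ⊓ Cfsg.Geo.specialLinear (Fin n) F)) (hF : Fintype.card F = q ^ 2) (hn : 3 ≤ n)
    (h32 : ¬ (n = 3 ∧ q = 2)) {W : Submodule F (Fin n → F)} (h0 : W ≠ ⊥) (h1 : W ≠ ⊤)
    (hle : m.hat A ≤ Cfsg.Geo.subspaceStabilizer W ⊓ Cfsg.GU n F q) : False :=
  Cfsg.Agent.H29.EP.SU.su_c1 h hF hn h32 m h0 h1 (hle.trans inf_le_left)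

theorem kills_C1a : Kills C1a := by
  rintro Q _ _ hs A Γ h F _ _ n q m hF hn h32 h43 _ ⟨W, h0, hts, rfl⟩ hle
  refine kills_C1 h m hF hn h32 h0 ?_ hle
  rintro rfl
  have h1 := hts (Pi.single ⟨0, by omega⟩ 1) trivial (Pi.single ⟨0, by omega⟩ 1) trivial
  rw [hermForm, Finset.sum_eq_single ⟨0, by omega⟩] at h1
  · simp at h1
  · intro b _ hb
    rw [Pi.single_eq_of_ne hb, zero_mul]
  · intro h; exact absurd (Finset.mem_univ _) h

theorem kills_C1b : Kills C1b := by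
  rintro Q _ _ hs A Γ h F _ _ n q m hF hn h32 h43 _ ⟨W, h0, _, h2, rfl⟩ hle
  refine kills_C1 h m hF hn h32 h0 ?_ hle
  rintro rfl
  rw [finrank_top, Module.finrank_fin_fun] at h2
  omega

theorem psuNonRes_of_C3 (h3 : Kills C3) : PsuNonRes := by
  refine psuNonRes kills_C1a kills_C1b Cfsg.Agent.H380.EPU.c2a Cfsg.Agent.H380.EPU.c2b ?_ ?_ ?_ ?_ h3
    Cfsg.Agent.H25.EPU.kills_C4 Cfsg.Agent.H25.EPU.kills_C7
  · rintro Q _ _ hs A Γ h F _ _ n q m hF hn h32 h43 M hM hle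
    exact Cfsg.Agent.H511.EP.su_C5 h m hF hn (Or.inl hM) hle
  · rintro Q _ _ hs A Γ h F _ _ n q m hF hn h32 h43 M hM hle
    exact Cfsg.Agent.H511.EP.su_C5 h m hF hn (Or.inr (Or.inl hM)) hle
  · rintro Q _ _ hs A Γ h F _ _ n q m hF hn h32 h43 M hM hle
    exact Cfsg.Agent.H511.EP.su_C5 h m hF hn (Or.inr (Or.inr hM)) hle
  · rintro Q _ _ hs A Γ h F _ _ n q m hF hn h32 h43 M hM hle
    exact Cfsg.Agent.H932.EP.su_c6 h m hF hn h32 hM hle

/-- **The geometric layer of the unitary groups.** -/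
theorem psuNonRes : PsuNonRes := psuNonRes_of_C3 kills_C3

end Cfsg.Agent.H91.EP
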